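import Cfsg.Agent.M24.Tools
import Cfsg.Agent.GT.SylowRel

/-!
# Coset covers, straight line programs and order certificates on coded groups
-/

set_option autoImplicit false

namespace Cfsg.Agent.J4M

open Cfsg.Agent.M24 Cfsg.Agent.GT Subgroup
open scoped Pointwise

/-- The inverse on codes (never evaluated). -/
noncomputable def cinv {G : Type*} [Group G] (code : G → ℕ) (n : ℕ) : ℕ :=
  open Classical in if h : ∃ g, code g = n then code h.choose⁻¹ else 0

theorem gc_of {G : Type*} [Group G] {code : G → ℕ} {mul : ℕ → ℕ → ℕ} {one : ℕ} (h1 : Function.Injective code)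
    (h2 : ∀ g h, code (g * h) = mul (code g) (code h)) (h3 : code 1 = one) : GC code mul (cinv code) one :=
  ⟨h1, h2, fun g => by
    have h : ∃ a, code a = code g := ⟨g, rfl⟩
    rw [cinv, dif_pos h, h1 h.choose_spec], h3⟩

/-- Positive word in base 16 (lowest digit leftmost; digit `d` is generator `d - 1`). -/
noncomputable def pw (mul : ℕ → ℕ → ℕ) (one : ℕ) (S : List ℕ) (w : ℕ) : ℕ :=
  Nat.rec (motive := fun _ => ℕ → ℕ) (fun _ => one)
    (fun _ ih w => force (lget S one (Nat.sub (Nat.land w (nat_lit 15)) (nat_lit 1))) fun s =>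
      force (Nat.shiftRight w (nat_lit 4)) fun w' => bif' (Nat.beq w' (nat_lit 0)) s (force (ih w') fun r => mul s r))
    (nat_lit 1000) w

/-- `k (l.map f)` with evaluated entries. -/
noncomputable def mapK (f : ℕ → ℕ) (l : List ℕ) : (List ℕ → Bool) → Bool :=
  List.rec (motive := fun _ => (List ℕ → Bool) → Bool) (fun k => k [])
    (fun x _ ih k => force (f x) fun y => ih fun ys => k (y :: ys)) l

theorem mapK_eq (f : ℕ → ℕ) (l : List ℕ) (k : List ℕ → Bool) : mapK f l k = k (l.map f) := by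
  induction l generalizing k with
  | nil => rfl
  | cons x l ih =>
    have : mapK f (x :: l) k = force (f x) fun y => mapK f l fun ys => k (y :: ys) := rfl
    rw [this, force_eq, ih]; rfl

/-- Straight line program: instruction `i + 1024 j` pushes the product of registers `i` and `j`. -/
noncomputable def slp (mul : ℕ → ℕ → ℕ) (one : ℕ) (k : List ℕ → Bool) (prog : List ℕ) : List ℕ → Bool :=
  List.rec (motive := fun _ => List ℕ → Bool) k
    (fun c _ ih R => force (lget R one (Nat.land c (nat_lit 1023))) fun a =>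
      force (lget R one (Nat.shiftRight c (nat_lit 10))) fun b => force (mul a b) fun y => ih (y :: R)) prog

/-- Product of the transversal members chosen by the digits of `c` (base 64, digit `0` is the identity), the deepest
level leftmost. -/
noncomputable def prodD (mul : ℕ → ℕ → ℕ) (one : ℕ) (Rs : List (List ℕ)) : ℕ → ℕ :=
  List.rec (motive := fun _ => ℕ → ℕ) (fun _ => one)
    (fun R _ ih c => force (Nat.shiftRight c (nat_lit 6)) fun c' => force (Nat.land c (nat_lit 63)) fun d =>
      bif' (Nat.beq d (nat_lit 0)) (ih c') (force (lget R one (Nat.sub d (nat_lit 1))) fun r =>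
        bif' (Nat.beq c' (nat_lit 0)) r (force (ih c') fun q => mul q r))) Rs

/-- `r * s` is the listed product for every generator `s`. -/
noncomputable def rowChk (mul : ℕ → ℕ → ℕ) (one : ℕ) (Rs : List (List ℕ)) (r : ℕ) (S : List ℕ) : ℕ → Bool :=
  List.rec (motive := fun _ => ℕ → Bool) (fun _ => true)
    (fun s _ ih c => band (Nat.beq (mul r s) (force (Nat.land c (nat_lit 0xffffffffffff)) (prodD mul one Rs)))
      (force (Nat.shiftRight c (nat_lit 48)) ih)) S

/-- A level: words of the transversal, words of the generators of the next level, certificates. -/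
structure Lv where
  tw : List ℕ
  gw : List ℕ
  ce : List ℕ

/-- The chain check. -/
noncomputable def chk (mul : ℕ → ℕ → ℕ) (one : ℕ) (Ls : List Lv) : List ℕ → (List (List ℕ) → Bool) → Bool :=
  List.rec (motive := fun _ => List ℕ → (List (List ℕ) → Bool) → Bool)
    (fun S k => band (lall S fun s => Nat.beq s one) (k []))
    (fun L _ ih S k => mapK (pw mul one S) L.tw fun R => mapK (pw mul one S) L.gw fun S' => ih S' fun Rs =>
      band (lall2 (one :: R) (fun r c => rowChk mul one (R :: Rs) r S c) L.ce) (k (R :: Rs))) Ls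

/-- The bound given by a chain. -/
def sz (Ls : List Lv) : ℕ := (Ls.map fun L => L.tw.length + 1).prod

/-- `g ^ 32`. -/
noncomputable def p32 (mul : ℕ → ℕ → ℕ) (g : ℕ) : ℕ :=
  force (mul g g) fun a => force (mul a a) fun a => force (mul a a) fun a => force (mul a a) fun a => mul a a

/-- The words `c % 2 ^ 64` and `c / 2 ^ 64` in `S` have orders 29 and 31. -/
noncomputable def bigChk (mul : ℕ → ℕ → ℕ) (one : ℕ) (S : List ℕ) (c : ℕ) : Bool :=
  band (force (force (Nat.land c (nat_lit 0xffffffffffffffff)) (pw mul one S)) fun g =>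
      band (!Nat.beq g one) (Nat.beq (p32 mul g) (force (mul g g) (mul g))))
    (force (force (Nat.shiftRight c (nat_lit 64)) (pw mul one S)) fun g =>
      band (!Nat.beq g one) (Nat.beq (p32 mul g) g))

/-- `a` has prime order `p`. -/
noncomputable def ordP (mul : ℕ → ℕ → ℕ) (one a p : ℕ) : Bool := band (Nat.beq (cpow mul one a p) one) (!Nat.beq a one)

/-- `s * x = x ^ k * s` for the listed exponents. -/
noncomputable def nrmChk (mul : ℕ → ℕ → ℕ) (one x : ℕ) (S ks : List ℕ) : Bool :=
  lall2 S (fun s k => Nat.beq (mul s x) (force (cpow mul one x k) fun y => mul y s)) ks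

/-- `b` is none of the first `n` powers of `a`. -/
noncomputable def notPow (mul : ℕ → ℕ → ℕ) (one a b n : ℕ) : Bool := nall n fun i => !Nat.beq (cpow mul one a i) b

section
variable {G : Type*} [Group G] {code : G → ℕ} {mul : ℕ → ℕ → ℕ} {inv : ℕ → ℕ} {one : ℕ}

/-- `k` codes a member of the subgroup generated by `S`. -/
def In (code : G → ℕ) (S : List ℕ) (k : ℕ) : Prop := ∃ g ∈ gen code S, code g = k

theorem valid_of_in {S l : List ℕ} (h : ∀ k ∈ l, In code S k) : Valid code l := fun k hk => (h k hk).imp fun _ h => h.2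

variable (C : GC code mul inv one)
include C

theorem gen_le_of_in {S l : List ℕ} (h : ∀ k ∈ l, In code S k) : gen code l ≤ gen code S := gen_le fun g hg => by
  obtain ⟨a, ha, e⟩ := h _ hg
  rwa [← C.inj e]

theorem In.mono {S l : List ℕ} (h : ∀ k ∈ l, In code S k) {k : ℕ} (hk : In code l k) : In code S k :=
  hk.imp fun _ a => ⟨gen_le_of_in C h a.1, a.2⟩

theorem in_mul {S : List ℕ} {a b : ℕ} (ha : In code S a) (hb : In code S b) : In code S (mul a b) := by
  obtain ⟨g, hg, rfl⟩ := ha
  obtain ⟨h, hh, rfl⟩ := hb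
  exact ⟨g * h, mul_mem hg hh, C.code_mul g h⟩

theorem in_pw {S : List ℕ} (hS : Valid code S) (w : ℕ) : In code S (pw mul one S w) := by
  unfold pw
  generalize (nat_lit 1000 : ℕ) = n
  induction n generalizing w with
  | zero => exact ⟨1, one_mem _, C.code_one⟩
  | succ n ih =>
    simp only [bif'_eq, force_eq] at ih ⊢
    split_ifs
    · exact C.lget_mem hS _
    · exact in_mul C (C.lget_mem hS _) (ih _)

theorem in_map {S : List ℕ} (hS : Valid code S) (ws : List ℕ) : ∀ k ∈ ws.map (pw mul one S), In code S k := by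
  intro k hk
  obtain ⟨w, -, rfl⟩ := List.mem_map.1 hk
  exact in_pw C hS w

theorem slp_sound {S : List ℕ} {k : List ℕ → Bool} {prog R : List ℕ} (hR : ∀ r ∈ R, In code S r)
    (h : slp mul one k prog R = true) : ∃ R', k R' = true ∧ ∀ r ∈ R', In code S r := by
  induction prog generalizing R with
  | nil => exact ⟨R, h, hR⟩
  | cons c l ih =>
    have e : slp mul one k (c :: l) R = force (lget R one (Nat.land c (nat_lit 1023))) fun a =>
      force (lget R one (Nat.shiftRight c (nat_lit 10))) fun b => force (mul a b) fun y =>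
        slp mul one k l (y :: R) := rfl
    rw [e, force_eq, force_eq, force_eq] at h
    have g : ∀ i, In code S (lget R one i) := fun i => In.mono C hR (C.lget_mem (valid_of_in hR) i)
    exact ih (fun r hr => (List.mem_cons.1 hr).elim (fun e => e ▸ in_mul C (g _) (g _)) (hR r)) h

/-- The members of `l` occur among the registers. -/
theorem slp_in {S l prog : List ℕ} (hS : Valid code S)
    (h : slp mul one (fun R => lall l fun a => lany R (Nat.beq a)) prog S = true) : ∀ a ∈ l, In code S a := by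
  obtain ⟨R, h1, h2⟩ := slp_sound C (S := S) (fun r hr => let ⟨g, e⟩ := hS r hr; ⟨g, mem_gen_of_mem (e ▸ hr), e⟩) h
  intro a ha
  obtain ⟨r, hr, e⟩ := (lany_iff _ _).1 ((lall_iff _ _).1 h1 a ha)
  exact Nat.eq_of_beq_eq_true e ▸ h2 r hr

theorem prodD_cons {S : List ℕ} {R : List ℕ} {Rs : List (List ℕ)} (hR : Valid code R)
    (h : ∀ c, In code S (prodD mul one Rs c)) (c : ℕ) :
    ∃ γ ∈ gen code S, ∃ ρ, code ρ ∈ one :: R ∧ code (γ * ρ) = prodD mul one (R :: Rs) c := by
  have e : prodD mul one (R :: Rs) c = force (Nat.shiftRight c (nat_lit 6)) fun c' =>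
    force (Nat.land c (nat_lit 63)) fun d =>
      bif' (Nat.beq d (nat_lit 0)) (prodD mul one Rs c') (force (lget R one (Nat.sub d (nat_lit 1))) fun r =>
        bif' (Nat.beq c' (nat_lit 0)) r (force (prodD mul one Rs c') fun q => mul q r)) := rfl
  simp only [e, force_eq, bif'_eq]
  obtain ⟨γ, h1, h2⟩ := h (Nat.shiftRight c (nat_lit 6))
  obtain ⟨ρ, -, h3⟩ := C.lget_mem hR (Nat.sub (Nat.land c (nat_lit 63)) (nat_lit 1))
  have h4 : code ρ ∈ one :: R := h3 ▸ (M24.lget_mem R one _).elim (List.mem_cons_of_mem _)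
    fun e => by rw [e]; exact List.mem_cons_self
  split_ifs
  · exact ⟨γ, h1, 1, C.code_one ▸ List.mem_cons_self, by rw [mul_one, h2]⟩
  · exact ⟨1, one_mem _, ρ, h4, by rw [one_mul, h3]⟩
  · exact ⟨γ, h1, ρ, h4, by rw [C.code_mul, h2, h3]⟩

theorem prodD_in {S : List ℕ} {Rs : List (List ℕ)} (h : ∀ R ∈ Rs, ∀ r ∈ R, In code S r) (c : ℕ) :
    In code S (prodD mul one Rs c) := by
  induction Rs generalizing c with
  | nil => exact ⟨1, one_mem _, C.code_one⟩
  | cons R Rs ih =>
    obtain ⟨γ, h1, ρ, h2, h3⟩ := prodD_cons C (valid_of_in (h R List.mem_cons_self))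
      (fun c => ih (fun R hR => h R (List.mem_cons_of_mem _ hR)) c) c
    refine ⟨_, mul_mem h1 ?_, h3⟩
    rcases List.mem_cons.1 h2 with e | e
    · rw [C.inj (e.trans C.code_one.symm)]; exact one_mem _
    · obtain ⟨a, ha, e'⟩ := h R List.mem_cons_self _ e
      rwa [← C.inj e']

omit C in
theorem rowChk_sound {Rs : List (List ℕ)} {r : ℕ} {S : List ℕ} {c : ℕ} (h : rowChk mul one Rs r S c = true) :
    ∀ s ∈ S, ∃ d, mul r s = prodD mul one Rs d := by
  induction S generalizing c with
  | nil => simp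
  | cons s S ih =>
    have e : rowChk mul one Rs r (s :: S) c =
      band (Nat.beq (mul r s) (force (Nat.land c (nat_lit 0xffffffffffff)) (prodD mul one Rs)))
      (force (Nat.shiftRight c (nat_lit 48)) (rowChk mul one Rs r S)) := rfl
    rw [e, band_eq, Bool.and_eq_true, force_eq, force_eq] at h
    intro t ht
    rcases List.mem_cons.1 ht with rfl | ht
    · exact ⟨_, Nat.eq_of_beq_eq_true h.1⟩
    · exact ih h.2 t ht

variable [Finite G]

theorem cover {S S' R ce : List ℕ} {Rs : List (List ℕ)} (hR : Valid code R) (h : ∀ R ∈ Rs, ∀ r ∈ R, In code S' r)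
    (hc : lall2 (one :: R) (fun r c => rowChk mul one (R :: Rs) r S c) ce = true) :
    ∀ g ∈ gen code S, ∃ γ ∈ gen code S', ∃ ρ, code ρ ∈ one :: R ∧ g = γ * ρ := by
  have k : ∀ s, code s ∈ S → ∀ g, (∃ γ ∈ gen code S', ∃ ρ, code ρ ∈ one :: R ∧ g = γ * ρ) →
      ∃ γ ∈ gen code S', ∃ ρ, code ρ ∈ one :: R ∧ g * s = γ * ρ := by
    rintro s hs _ ⟨γ, h1, ρ, h2, rfl⟩
    obtain ⟨c, h3⟩ := lall2_sound hc _ h2
    obtain ⟨d, h4⟩ := rowChk_sound h3 _ hs
    obtain ⟨γ', h5, ρ', h6, h7⟩ := prodD_cons C hR (prodD_in C h) d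
    exact ⟨γ * γ', mul_mem h1 h5, ρ', h6, by
      rw [mul_assoc, mul_assoc, C.inj (h7.trans (h4.symm.trans (C.code_mul ρ s).symm))]⟩
  intro g hg
  induction hg using closure_induction_right with
  | one => exact ⟨1, one_mem _, 1, C.code_one ▸ List.mem_cons_self, (mul_one 1).symm⟩
  | mul_right x _ s hs ih => exact k s hs x ih
  | mul_inv_cancel x _ s hs ih =>
    have : ∀ n : ℕ, ∃ γ ∈ gen code S', ∃ ρ, code ρ ∈ one :: R ∧ x * s ^ n = γ * ρ := fun n => by
      induction n with
      | zero => simpa using ih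
      | succ n ih => rw [pow_succ, ← mul_assoc]; exact k s hs _ ih
    have e : s⁻¹ = s ^ (orderOf s - 1) := by
      rw [inv_eq_iff_mul_eq_one, ← pow_succ', Nat.sub_add_cancel (orderOf_pos s), pow_orderOf_eq_one]
    exact e ▸ this _

theorem card_of_cover {K K' : Subgroup G} {l : List ℕ} (h : ∀ g ∈ K, ∃ γ ∈ K', ∃ ρ, code ρ ∈ l ∧ g = γ * ρ) :
    Nat.card K ≤ l.length * Nat.card K' := by
  have h1 : (K : Set G) ⊆ (K' : Set G) * {ρ | code ρ ∈ l} := fun g hg =>
    let ⟨γ, a, ρ, b, e⟩ := h g hg; ⟨γ, a, ρ, b, e.symm⟩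
  have h2 : Nat.card {ρ | code ρ ∈ l} ≤ l.length := by
    rw [Nat.card_coe_set_eq, ← Set.InjOn.ncard_image (f := code) C.inj.injOn]
    refine (Set.ncard_le_ncard (t := (l.toFinset : Set ℕ)) ?_).trans ?_
    · rintro _ ⟨ρ, hρ, rfl⟩; simpa using hρ
    · rw [Set.ncard_coe_finset]; exact l.toFinset_card_le
  calc Nat.card K ≤ Nat.card ↥((K' : Set G) * {ρ | code ρ ∈ l}) := Nat.card_mono (Set.toFinite _) h1
    _ ≤ _ := Set.natCard_mul_le
    _ ≤ _ := by rw [mul_comm]; exact Nat.mul_le_mul_right _ h2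

theorem chk_sound {Ls : List Lv} {S : List ℕ} {k : List (List ℕ) → Bool} (hS : Valid code S)
    (h : chk mul one Ls S k = true) :
    ∃ Rs, k Rs = true ∧ (∀ R ∈ Rs, ∀ r ∈ R, In code S r) ∧ Nat.card (gen code S) ≤ sz Ls := by
  induction Ls generalizing S k with
  | nil =>
    have e : chk mul one [] S k = band (lall S fun s => Nat.beq s one) (k []) := rfl
    rw [e, band_eq, Bool.and_eq_true, lall_iff] at h
    refine ⟨[], h.2, by simp, ?_⟩
    rw [eq_bot_iff.2 (gen_le (H := ⊥) fun g hg => C.inj ((Nat.eq_of_beq_eq_true (h.1 _ hg)).trans C.code_one.symm)),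
      card_bot]
    exact le_rfl
  | cons L Ls ih =>
    have e : chk mul one (L :: Ls) S k = mapK (pw mul one S) L.tw fun R => mapK (pw mul one S) L.gw fun S' =>
      chk mul one Ls S' fun Rs =>
        band (lall2 (one :: R) (fun r c => rowChk mul one (R :: Rs) r S c) L.ce) (k (R :: Rs)) := rfl
    rw [e, mapK_eq, mapK_eq] at h
    obtain ⟨Rs, h1, h2, h3⟩ := ih (valid_of_in (in_map C hS _)) h
    rw [band_eq, Bool.and_eq_true] at h1
    refine ⟨_, h1.2, fun R hR => (List.mem_cons.1 hR).elim (fun e => e ▸ in_map C hS _)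
      fun hR r hr => In.mono C (in_map C hS _) (h2 R hR r hr), ?_⟩
    refine (card_of_cover C (cover C (valid_of_in (in_map C hS _)) h2 h1.1)).trans ?_
    rw [List.length_cons, List.length_map, sz, List.map_cons, List.prod_cons]
    exact Nat.mul_le_mul_left _ h3

theorem chk_card {Ls : List Lv} {S : List ℕ} (hS : Valid code S) (h : chk mul one Ls S (fun _ => true) = true) :
    Nat.card (gen code S) ≤ sz Ls :=
  let ⟨_, _, _, h⟩ := chk_sound C hS h; h

theorem chk_cons {L : Lv} {Ls : List Lv} {S : List ℕ} (hS : Valid code S)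
    (h : chk mul one (L :: Ls) S (fun _ => true) = true) :
    (∀ g ∈ gen code S, ∃ γ ∈ gen code (L.gw.map (pw mul one S)), ∃ ρ,
      (ρ = 1 ∨ ∃ w ∈ L.tw, code ρ = pw mul one S w) ∧ g = γ * ρ) ∧
    Nat.card (gen code (L.gw.map (pw mul one S))) ≤ sz Ls := by
  have e : chk mul one (L :: Ls) S (fun _ => true) = mapK (pw mul one S) L.tw fun R => mapK (pw mul one S) L.gw fun S' =>
    chk mul one Ls S' fun Rs =>
      band (lall2 (one :: R) (fun r c => rowChk mul one (R :: Rs) r S c) L.ce) true := rfl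
  rw [e, mapK_eq, mapK_eq] at h
  obtain ⟨Rs, h1, h2, h3⟩ := chk_sound C (valid_of_in (in_map C hS _)) h
  rw [band_eq, Bool.and_eq_true] at h1
  refine ⟨fun g hg => ?_, h3⟩
  obtain ⟨γ, a, ρ, b, e⟩ := cover C (valid_of_in (in_map C hS _)) h2 h1.1 g hg
  refine ⟨γ, a, ρ, (List.mem_cons.1 b).imp (fun e => C.inj (e.trans C.code_one.symm)) fun b => ?_, e⟩
  obtain ⟨w, hw, e⟩ := List.mem_map.1 b
  exact ⟨w, hw, e.symm⟩

omit [Finite G] in
theorem p32_code (g : G) : p32 mul (code g) = code (g ^ 32) := by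
  simp only [p32, force_eq, ← C.code_mul]
  congr 1
  simp only [← pow_two, ← pow_mul]
  rfl

omit [Finite G] in
theorem big_sound {S : List ℕ} (hS : Valid code S) {c : ℕ} (h : bigChk mul one S c = true) {M : Subgroup G}
    (hM : gen code S ≤ M) : 29 ∣ Nat.card M ∧ 31 ∣ Nat.card M := by
  simp only [bigChk, band_eq, force_eq, Bool.and_eq_true, Bool.not_eq_true'] at h
  obtain ⟨a, ha, e⟩ := in_pw C hS (Nat.land c (nat_lit 0xffffffffffffffff))
  obtain ⟨b, hb, e'⟩ := in_pw C hS (Nat.shiftRight c (nat_lit 64))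
  rw [← e, ← e', p32_code C, p32_code C, ← C.code_mul, ← C.code_mul] at h
  obtain ⟨⟨h1, h2⟩, h3, h4⟩ := h
  have : Fact (Nat.Prime 29) := ⟨by norm_num⟩
  have : Fact (Nat.Prime 31) := ⟨by norm_num⟩
  constructor
  · rw [← orderOf_eq_prime (x := a) (p := 29) (mul_left_cancel (a := a * (a * a)) (by
      rw [mul_one, ← C.inj (Nat.eq_of_beq_eq_true h2), C.inj (Nat.eq_of_beq_eq_true h2)]
      conv_rhs => rw [← C.inj (Nat.eq_of_beq_eq_true h2)]
      group)) fun k => by simp [C.eq_one_iff.2 k] at h1]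
    exact orderOf_dvd_card_of_mem (hM ha)
  · rw [← orderOf_eq_prime (x := b) (p := 31) (mul_left_cancel (a := b) (by
      rw [mul_one, ← pow_succ', C.inj (Nat.eq_of_beq_eq_true h4)])) fun k => by simp [C.eq_one_iff.2 k] at h3]
    exact orderOf_dvd_card_of_mem (hM hb)

omit [Finite G] in
theorem ordP_sound {g : G} {a p : ℕ} (hp : p.Prime) (e : code g = a) (h : ordP mul one a p = true) : orderOf g = p :=
  have := Fact.mk hp
  C.orderOf_prime e (by rw [← band_eq]; exact h)

theorem nrm_sound {x : G} {a : ℕ} (e : code x = a) {S ks : List ℕ} (h : nrmChk mul one a S ks = true) :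
    gen code S ≤ normalizer (zpowers x : Set G) := gen_le fun g hg => by
  obtain ⟨k, hk⟩ := lall2_sound h _ hg
  rw [force_eq, ← e, C.cpow_code, ← C.code_mul, ← C.code_mul] at hk
  refine mem_normalizer_of_conj_le ?_
  rw [conj_zpowers, C.inj (Nat.eq_of_beq_eq_true hk), mul_inv_cancel_right]
  exact zpowers_le.2 (npow_mem_zpowers x k)

theorem notPow_sound {x y : G} {a b n : ℕ} (e : code x = a) (e' : code y = b) (o : orderOf x = n)
    (h : notPow mul one a b n = true) : y ∉ zpowers x := fun k => by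
  classical
  obtain ⟨i, hi, rfl⟩ := (mem_zpowers_iff_mem_range_orderOf.1 k |> Finset.mem_image.1)
  have := (nall_iff _ _).1 h i (o ▸ Finset.mem_range.1 hi)
  rw [← e, ← e', C.cpow_code] at this
  simp at this

end

theorem dvd_of_norm {G : Type*} [Group G] [Finite G] {p : ℕ} (hp : p.Prime) {a b : G} {M : Subgroup G} (ha : a ∈ M)
    (hb : b ∈ M) (o : orderOf b = p) (hn : b ∈ normalizer (zpowers a : Set G)) (k : b ∉ zpowers a) :
    p * orderOf a ∣ Nat.card M := by
  have c : Nat.card (zpowers b) = p := by rw [Nat.card_zpowers, o]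
  have := card_sup_of_inf_eq_bot (H := zpowers b) (K := zpowers a) (.inl (zpowers_le.2 hn))
    ((le_or_inf_eq_bot_of_card_prime (c ▸ hp) _).resolve_left fun e => k (e (mem_zpowers b)))
  rw [c, Nat.card_zpowers] at this
  exact this ▸ card_dvd_of_le (sup_le (zpowers_le.2 hb) (zpowers_le.2 ha))

end Cfsg.Agent.J4M
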