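import Cfsg.Agent.J4U.A
import Cfsg.Agent.J4M.K

/-!
# Groups of type `J₄`: a maximality criterion for subgroups `M₂₂:2`
-/

set_option autoImplicit false
set_option linter.unusedSectionVars false

namespace Cfsg.Agent.J4M

open Cfsg.Agent.J4 Cfsg.Agent.J4U Cfsg.Agent.M24 Cfsg.Agent.TT Cfsg.Agent.GT Subgroup MulAction
open scoped Pointwise

theorem sieve1 : ∀ a < 22, ∀ b ∈ l64, ∀ c ∈ l32, 2 ^ a * (b * c) % 887040 = 0 → sv (2 ^ a * (b * c)) 7 42 →
    sv (2 ^ a * (b * c)) 11 110 → okB (2 ^ a * (b * c)) → 2 ^ a * (b * c) = 887040 := by decide +kernel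

theorem sieve2 : ∀ a < 22, ∀ b ∈ l64, ∀ c ∈ l32, 2 ^ a * (b * c) % 887040 = 0 → 2 ^ a * (b * c) % (29 * 31) = 0 →
    okB (2 ^ a * (b * c)) →
    2 ^ a * (b * c) * 2 = 86775571046077562880 ∨ 2 ^ a * (b * c) = 86775571046077562880 := by decide +kernel

theorem coatom_crit {G : Type*} [Group G] [Finite G] [IsSimpleGroup G] (F : JF G) {H K L : Subgroup G} {x u : G}
    (hH : Nat.card H = 887040) (ox : orderOf x = 7) (ou : orderOf u = 11) (hx : x ∈ K) (hu : u ∈ L)
    (hK : K ≤ H ⊓ N[zpowers x]) (hL : L ≤ H ⊓ N[zpowers u]) (cK : Nat.card K = 42) (cL : Nat.card L = 110)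
    (h7 : ∀ M, H ≤ M → ∀ g ∈ M ⊓ N[zpowers x], g ∈ K ∨ 29 ∣ Nat.card M ∧ 31 ∣ Nat.card M)
    (h11 : ∀ M, H ≤ M → ∀ g ∈ M ⊓ N[zpowers u], g ∈ L ∨ 29 ∣ Nat.card M ∧ 31 ∣ Nat.card M) : IsCoatom H := by
  refine coatom_of (by rw [hH, F.card]; norm_num) fun M hM => ?_
  obtain ⟨a, ha, b, hb, c, hc, e⟩ := exists_fac (F.card ▸ card_subgroup_dvd_card M)
  have h1 := F.okB M
  have h2 : Nat.card M % 887040 = 0 := Nat.mod_eq_zero_of_dvd (hH ▸ card_dvd_of_le hM)
  by_cases h : 29 ∣ Nat.card M ∧ 31 ∣ Nat.card M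
  · have h3 := Nat.mod_eq_zero_of_dvd (Nat.Coprime.mul_dvd_of_dvd_of_dvd (by norm_num) h.1 h.2)
    rw [e] at h1 h2 h3
    rw [top_of_card F (K := M) (e ▸ sieve2 a ha b hb c hc h2 h3 h1), card_top]
    exact .inr rfl
  have e1 : M ⊓ N[zpowers x] = K := le_antisymm (fun g hg => (h7 M hM g hg).resolve_right h)
    (hK.trans (inf_le_inf_right _ hM))
  have e2 : M ⊓ N[zpowers u] = L := le_antisymm (fun g hg => (h11 M hM g hg).resolve_right h)
    (hL.trans (inf_le_inf_right _ hM))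
  have h3 := sv_syl (by norm_num) (syl_of_syl_norm (M := M) (by norm_num) (e1 ▸ syl_zp (p := 7) (by norm_num) hx ox
    (by rw [cK]; norm_num)))
  have h4 := sv_syl (by norm_num) (syl_of_syl_norm (M := M) (by norm_num) (e2 ▸ syl_zp (p := 11) (by norm_num) hu ou
    (by rw [cL]; norm_num)))
  rw [e1, cK] at h3
  rw [e2, cL] at h4
  rw [e] at h1 h2 h3 h4
  exact .inl (by rw [e, hH]; exact sieve1 a ha b hb c hc h2 h3 h4 h1)

theorem dd_normal {K : Subgroup M24} (h1 : K ≤ Dd) (h2 : ∀ d ∈ Dd, ∀ k ∈ K, d * k * d⁻¹ ∈ K) (h3 : K ≠ ⊥) :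
    11 ∣ Nat.card K := by
  obtain ⟨⟨n, hn⟩, n1⟩ := ne_bot_iff_exists_ne_one.1 h3
  have out : ∀ g ∈ Dd, ∀ p : GolayPt, p ≠ none ∧ p ≠ some 0 →
      (g : Equiv.Perm GolayPt) p ≠ none ∧ (g : Equiv.Perm GolayPt) p ≠ some 0 := fun g hg p hp => by
    have := mem_Dd.1 hg p
    tauto
  obtain ⟨a, ha, na⟩ : ∃ a : GolayPt, (a ≠ none ∧ a ≠ some 0) ∧ (n : Equiv.Perm GolayPt) a ≠ a := by
    by_contra! k
    refine n1 (Subtype.ext (Dd_cent (h1 hn) fun x hx => Subtype.ext (Equiv.ext fun p => ?_)))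
    have hx' := mem_H22.1 hx
    simp only [Subgroup.coe_mul, Equiv.Perm.mul_apply]
    by_cases hp : p ≠ none ∧ p ≠ some 0
    · rw [k p hp, k _ (out x (H22_le_Dd hx) p hp)]
    · have h4 : p = none ∨ p = some 0 := by tauto
      have h5 := (mem_Dd.1 (h1 hn) p).2 h4
      have h6 : ∀ q : GolayPt, q = none ∨ q = some 0 → (x : Equiv.Perm GolayPt) q = q := by
        rintro q (rfl | rfl)
        exacts [hx'.1, hx'.2]
      rw [h6 p h4, h6 _ h5]
  have e : orbit K a = {p | p ≠ none ∧ p ≠ some 0} := by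
    ext c
    refine ⟨fun ⟨k, hk⟩ => hk ▸ out k (h1 k.2) a ha, fun hc => ?_⟩
    by_cases ca : c = a
    · exact ca ▸ mem_orbit_self c
    have hb := out n (h1 hn) a ha
    have inj : ∀ b : GolayPt, b ≠ none ∧ b ≠ some 0 → b ≠ a → Function.Injective ![none, some 0, a, b] :=
      fun b hb ba i j => by
        have h4 := ha.1; have h5 := ha.2; have h6 := hb.1; have h7 := hb.2
        fin_cases i <;> fin_cases j <;> simp [h4, h5, h6, h7, ba, h4.symm, h5.symm, h6.symm, h7.symm, ba.symm]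
    obtain ⟨g, hg, k⟩ := trans_tuples (by simp) (inj _ hb na) (inj c hc ca)
    have g1 : (⟨g, hg⟩ : M24) ∈ Dd := H22_le_Dd (mem_H22.2 ⟨k 0, k 1⟩)
    refine ⟨⟨_, h2 _ g1 n hn⟩, ?_⟩
    have k2 : g⁻¹ a = a := by rw [Equiv.Perm.inv_eq_iff_eq]; exact (k 2).symm
    show g ((n : Equiv.Perm GolayPt) (g⁻¹ a)) = c
    rw [k2]; exact k 3
  have c := card_inf_stab K a
  rw [e, show {p : GolayPt | p ≠ none ∧ p ≠ some 0}.ncard = 22 by
    rw [Set.ncard_eq_toFinset_card']; decide +kernel] at c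
  exact c ▸ Dvd.dvd.mul_left (by norm_num) _

theorem iso_of_graph {G : Type*} [Group G] [Finite G] {Γ : Subgroup (M24 × G)}
    (h1 : Γ.map (MonoidHom.fst _ _) = Dd) (h2 : Nat.card Γ ≤ 887040)
    (h3 : 11 ∣ Nat.card (Γ.map (MonoidHom.snd _ _))) :
    Nat.card (Γ.map (MonoidHom.snd _ _)) = 887040 ∧ Nonempty (Γ.map (MonoidHom.snd _ _) ≃* MulAut ↥Spor.M22) := by
  have b1 : Function.Bijective ((MonoidHom.fst _ _).subgroupMap Γ) :=
    ((MonoidHom.fst _ _).subgroupMap_surjective Γ).bijective_of_nat_card_le (by rw [h1, card_Dd]; exact h2)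
  have c1 := Nat.card_eq_of_bijective _ b1
  rw [h1, card_Dd] at c1
  have c2 := card_mul_index ((MonoidHom.snd _ _).subgroupMap Γ).ker
  rw [index_ker, MonoidHom.range_eq_top.2 ((MonoidHom.snd _ _).subgroupMap_surjective Γ), card_top, c1] at c2
  have c3 : Nat.card (Γ.comap (MonoidHom.inl _ _)) = Nat.card ((MonoidHom.snd _ _).subgroupMap Γ).ker :=
    Nat.card_congr ⟨fun k => ⟨⟨_, k.2⟩, Subtype.ext rfl⟩, fun k => ⟨k.1.1.1, by
      have e : k.1.1.2 = 1 := congrArg Subtype.val k.2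
      rw [mem_comap, MonoidHom.inl_apply, ← e]; exact k.1.2⟩, fun k => rfl, fun k => by
      have e : k.1.1.2 = 1 := congrArg Subtype.val k.2
      exact Subtype.ext (Subtype.ext (Prod.ext rfl e.symm))⟩
  have c4 : Γ.comap (MonoidHom.inl _ _) = ⊥ := by_contra fun n => by
    have := dd_normal (fun k hk => h1 ▸ ⟨_, hk, rfl⟩) (fun d hd k hk => by
      obtain ⟨p, hp, rfl⟩ := h1.ge hd
      simpa [mem_comap, Prod.mul_def] using mul_mem (mul_mem hp hk) (inv_mem hp)) n
    rw [c3] at this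
    exact absurd (c2 ▸ Nat.mul_dvd_mul this h3) (by norm_num)
  rw [c4, card_bot] at c3
  rw [← c3, one_mul] at c2
  have b2 : Function.Bijective ((MonoidHom.snd _ _).subgroupMap Γ) :=
    ((MonoidHom.snd _ _).subgroupMap_surjective Γ).bijective_of_nat_card_le (by rw [c1, c2])
  obtain ⟨e⟩ := autM22
  exact ⟨c2, ⟨(MulEquiv.ofBijective _ b2).symm.trans ((MulEquiv.ofBijective _ b1).trans
    ((MulEquiv.subgroupCongr h1).trans e.symm))⟩⟩

/-- Codes of pairs. -/
noncomputable def pcd {G : Type*} (code : G → ℕ) (p : M24 × G) : ℕ := mcode p.1 + 2 ^ 120 * code p.2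
noncomputable def mk2 (a b : ℕ) : ℕ := Nat.add a (Nat.shiftLeft b (nat_lit 120))
noncomputable def mul2 (mm : ℕ → ℕ → ℕ) (a b : ℕ) : ℕ :=
  force (Nat.land a (nat_lit 0xffffffffffffffffffffffffffffff)) fun a1 =>
    force (Nat.land b (nat_lit 0xffffffffffffffffffffffffffffff)) fun b1 =>
      force (Nat.shiftRight a (nat_lit 120)) fun a2 => force (Nat.shiftRight b (nat_lit 120)) fun b2 =>
        force (mul a1 b1) fun c1 => force (mm a2 b2) fun c2 => mk2 c1 c2

theorem mk2_eq (a b : ℕ) : mk2 a b = a + 2 ^ 120 * b := by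
  show a + b <<< 120 = _
  rw [Nat.shiftLeft_eq, mul_comm]

theorem mcode_lt (g : M24) : mcode g < 2 ^ 120 := by
  refine Nat.lt_pow_two_of_testBit _ fun t ht => Bool.eq_false_iff.2 fun h => ?_
  obtain ⟨i, hi, h⟩ := (testBit_orAll 24 (fun i => Nat.shiftLeft (EG.idx ((g : Equiv.Perm GolayPt) (EG.pt i)))
    (Nat.mul 5 i)) t).1 h
  have h' : (EG.idx ((g : Equiv.Perm GolayPt) (EG.pt i)) <<< (5 * i)).testBit t = true := h
  rw [Nat.testBit_shiftLeft, Nat.testBit_lt_two_pow ((EG.idx_lt _).trans_le (le_trans (by norm_num)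
    (Nat.pow_le_pow_right (n := 2) (by norm_num) (show 5 ≤ t - 5 * i by omega))))] at h'
  simp at h'

section
variable {G : Type*} [Group G] {code : G → ℕ} {mm : ℕ → ℕ → ℕ} {inv : ℕ → ℕ} {one : ℕ} (C : GC code mm inv one)
include C

theorem gc_pair : GC (pcd code) (mul2 mm) (cinv (pcd code)) (mk2 M24.one one) := by
  have a1 : ∀ p : M24 × G, Nat.land (pcd code p) (nat_lit 0xffffffffffffffffffffffffffffff) = mcode p.1 := fun p => by
    show pcd code p &&& (2 ^ 120 - 1) = _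
    rw [pcd, add_comm, and_add (mcode_lt _)]
  have a2 : ∀ p : M24 × G, Nat.shiftRight (pcd code p) (nat_lit 120) = code p.2 := fun p => by
    show pcd code p >>> 120 = _
    rw [pcd, add_comm, shr_add (mcode_lt _)]
  refine gc_of (fun p q h => Prod.ext (gcM.inj ?_) (C.inj ?_)) (fun p q => ?_) ?_
  · rw [← a1, h, a1]
  · rw [← a2, h, a2]
  · simp only [mul2, force_eq, a1, a2, mk2_eq, ← gcM.code_mul, ← C.code_mul]; rfl
  · rw [mk2_eq, ← gcM.code_one, ← C.code_one]; rfl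

theorem gen_two (a b : G) : gen code [code a, code b] = Subgroup.closure {a, b} := by
  refine congrArg Subgroup.closure (Set.ext fun g => ?_)
  simp [C.inj.eq_iff]

theorem in_words {S l ws : List ℕ} (hS : Valid code S)
    (h : lall2 l (fun k w => Nat.beq k (pw mm one S w)) ws = true) : ∀ k ∈ l, In code S k := fun k hk =>
  let ⟨w, e⟩ := lall2_sound h k hk; Nat.eq_of_beq_eq_true e ▸ in_pw C hS w

variable [Finite G]

theorem iso_of_chk {a b : G} {p q : M24} {ca cb cp cq : ℕ} (ea : code a = ca) (eb : code b = cb) (ep : mcode p = cp)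
    (eq : mcode q = cq) (hD : gen mcode [cp, cq] = Dd) {Ls : List Lv} (hs : sz Ls ≤ 887040)
    (h : (force (mk2 cp ca) fun c => force (mk2 cq cb) fun d => force (mk2 M24.one one) fun o =>
      chk (mul2 mm) o Ls [c, d] fun _ => true) = true) (h11 : 11 ∣ Nat.card (gen code [ca, cb])) :
    Nat.card (gen code [ca, cb]) = 887040 ∧ Nonempty (gen code [ca, cb] ≃* MulAut ↥Spor.M22) := by
  subst ea eb ep eq
  simp only [force_eq] at h
  have e1 : mk2 (mcode p) (code a) = pcd code (p, a) := mk2_eq _ _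
  have e2 : mk2 (mcode q) (code b) = pcd code (q, b) := mk2_eq _ _
  rw [e1, e2] at h
  have h1 := (chk_card (gc_pair C) (fun s hs => by
    simp only [List.mem_cons, List.not_mem_nil, or_false] at hs; rcases hs with rfl | rfl <;> exact ⟨_, rfl⟩) h).trans hs
  rw [gen_two (gc_pair C)] at h1
  have h2 : (Subgroup.closure {(p, a), (q, b)}).map (MonoidHom.snd _ _) = gen code [code a, code b] := by
    rw [MonoidHom.map_closure, gen_two C, Set.image_pair]; rfl
  rw [← h2] at h11 ⊢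
  exact iso_of_graph (by rw [MonoidHom.map_closure, ← hD, gen_two gcM, Set.image_pair]; rfl) h1 h11

theorem loc_of_chk {A S B ks cs : List ℕ} (hA : Valid code A) (hS : Valid code S) {x : G} {cx : ℕ} (e : code x = cx)
    {L : Lv} {Ls : List Lv} (h1 : chk mm one (L :: Ls) S (fun _ => true) = true) (h2 : nrmChk mm one cx S ks = true)
    (h3 : Nat.card N[zpowers x] ≤ Nat.card (gen code S)) (hB : L.gw.map (pw mm one S) = B)
    (h4 : lall2 L.tw (fun w c => force (pw mm one S w) fun r => bigChk mm one (r :: A) c) cs = true)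
    (h5 : gen code B ≤ gen code A) : gen code B ≤ gen code A ⊓ N[zpowers x] ∧ Nat.card (gen code B) ≤ sz Ls ∧
    ∀ M, gen code A ≤ M → ∀ g ∈ M ⊓ N[zpowers x], g ∈ gen code B ∨ 29 ∣ Nat.card M ∧ 31 ∣ Nat.card M := by
  have n := nrm_sound C e h2
  obtain ⟨k1, k2⟩ := chk_cons C hS h1
  rw [hB] at k1 k2
  refine ⟨le_inf h5 ((hB ▸ gen_le_of_in C (in_map C hS _)).trans n), k2, fun M hM g hg => ?_⟩
  obtain ⟨γ, a, ρ, b, rfl⟩ := k1 g ((eq_of_le_of_card_ge n h3).ge hg.2)
  rcases b with rfl | ⟨w, hw, b⟩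
  · exact .inl (by rwa [mul_one])
  obtain ⟨c, hc⟩ := lall2_sound h4 w hw
  rw [force_eq, ← b] at hc
  refine .inr (big_sound C (fun s hs => (List.mem_cons.1 hs).elim (fun e => ⟨ρ, e.symm⟩) (hA s)) hc
    (gen_le fun s hs => (List.mem_cons.1 hs).elim (fun e => ?_) fun hs => hM (mem_gen_of_mem hs)))
  rw [C.inj e]
  exact (mul_mem_cancel_left (hM (h5 a))).1 hg.1

end

/-- The word `w` has prime order `p`. -/
noncomputable def ordW (mm : ℕ → ℕ → ℕ) (one : ℕ) (S : List ℕ) (w p : ℕ) : Bool :=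
  force (pw mm one S w) fun a => ordP mm one a p

/-- The word `wa` has order `n + 1`, `wb` has order `p`, normalises the group of `wa` and lies outside. -/
noncomputable def sqChk (mm : ℕ → ℕ → ℕ) (one : ℕ) (S : List ℕ) (wa wb n p k : ℕ) : Bool :=
  force (pw mm one S wa) fun a => force (pw mm one S wb) fun b =>
    band (band (Nat.beq (cpow mm one a (n + 1)) one) (nall n fun i => !Nat.beq (cpow mm one a (i + 1)) one))
      (band (ordP mm one b p) (band (nrmChk mm one a [b] [k]) (notPow mm one a b (n + 1))))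

section
variable {G : Type*} [Group G] {code : G → ℕ} {mm : ℕ → ℕ → ℕ} {inv : ℕ → ℕ} {one : ℕ} (C : GC code mm inv one)
  [Finite G] {S : List ℕ} (hS : Valid code S)
include C hS

theorem ordW_sound {w p : ℕ} (hp : p.Prime) (h : ordW mm one S w p = true) : p ∣ Nat.card (gen code S) := by
  obtain ⟨a, ha, e⟩ := in_pw C hS w
  exact ordP_sound C hp e (by rwa [ordW, force_eq] at h) ▸ orderOf_dvd_card_of_mem ha

theorem sqChk_sound {wa wb n p k : ℕ} (hp : p.Prime) (h : sqChk mm one S wa wb n p k = true) :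
    p * (n + 1) ∣ Nat.card (gen code S) := by
  obtain ⟨a, ha, e⟩ := in_pw C hS wa
  obtain ⟨b, hb, e'⟩ := in_pw C hS wb
  simp only [sqChk, force_eq, band_eq, Bool.and_eq_true, nall_iff, ← e, ← e', C.cpow_code, C.eq_one_iff,
    Bool.not_eq_true', Bool.eq_false_iff, ne_eq] at h
  obtain ⟨⟨h1, h2⟩, h3, h4, h5⟩ := h
  have o : orderOf a = n + 1 := (orderOf_eq_iff (Nat.succ_pos n)).2 ⟨h1, fun m hm m0 => by
    obtain ⟨i, rfl⟩ := Nat.exists_eq_succ_of_ne_zero m0.ne'
    exact h2 i (by omega)⟩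
  exact o ▸ dvd_of_norm hp ha hb (ordP_sound C hp rfl h3) (nrm_sound C rfl h4 (mem_gen_of_mem (by simp)))
    (notPow_sound C rfl rfl o h5)

end

theorem card_norm11 {G : Type*} [Group G] [Finite G] (F : JF G) {u w c : G} (ou : orderOf u = 11) (ow : orderOf w = 11)
    (oc : orderOf c = 11) (h1 : w * u = c * u * w) (h2 : c * u = u * c) (h3 : c * w = w * c) :
    Nat.card N[zpowers u] ≤ 2420 := by
  have : Fact (Nat.Prime 11) := ⟨by norm_num⟩
  have pg : ∀ {g : G}, orderOf g = 11 → IsPGroup 11 (zpowers g) := fun o =>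
    isPGroup_of_card_eq_prime (by rw [Nat.card_zpowers, o])
  have n1 : zpowers u ≤ N[zpowers c] := zpowers_le.2 (cent_le_norm _ ((cent_zpowers c).ge (mem_cent1.2 h2.symm)))
  have n2 : zpowers w ≤ N[zpowers u ⊔ zpowers c] := zpowers_le.2 (mem_normalizer_of_conj_le (by
    rw [conj_sup, conj_zpowers, conj_zpowers, h1, ← h3, mul_inv_cancel_right, mul_inv_cancel_right]
    exact sup_le (zpowers_le.2 (mul_mem (mem_sup_right (mem_zpowers c)) (mem_sup_left (mem_zpowers u)))) le_sup_right))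
  have h4 := F.c11 _ (((pg ow).to_sup_of_normal_right' ((pg ou).to_sup_of_normal_right' (pg oc) n1) n2)) u
    (mem_sup_right (mem_sup_left (mem_zpowers u))) w (mem_sup_left (mem_zpowers w)) fun k => by
      rw [← k, mul_assoc, eq_comm, mul_eq_right] at h1
      rw [h1, orderOf_one] at oc; omega
  obtain ⟨e, h5, h6, -⟩ := exists_aut (by norm_num) ou
  rw [h6, h4]
  have := Nat.le_of_dvd (by norm_num) h5
  omega

end Cfsg.Agent.J4M
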