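import Cfsg.Agent.J4M.N37D

/-!
# Certificates for the normaliser of a Sylow 37-subgroup of `J₄`
-/

set_option autoImplicit false

namespace Cfsg.Agent.J4M

open Cfsg.Agent.M24 Cfsg.Agent.TT Cfsg.Agent.GT Subgroup

theorem con_10 : (force a37 fun a => lall lF_10 (conChk 29 3 43 1 [e37i0, e37i1, e37i2, e37i3, e37i4, e37i5, e37i6,
  e37i7] [e37u, e37c] a)) = true := by
  decide +kernel
theorem con_11 : (force a37 fun a => lall lF_11 (conChk 29 3 43 1 [e37i0, e37i1, e37i2, e37i3, e37i4, e37i5, e37i6,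
  e37i7] [e37u, e37c] a)) = true := by
  decide +kernel
theorem con_12 : (force a37 fun a => lall lF_12 (conChk 29 3 43 1 [e37i0, e37i1, e37i2, e37i3, e37i4, e37i5, e37i6,
  e37i7] [e37u, e37c] a)) = true := by
  decide +kernel
theorem con_13 : (force a37 fun a => lall lF_13 (conChk 29 3 43 1 [e37i0, e37i1, e37i2, e37i3, e37i4, e37i5, e37i6,
  e37i7] [e37u, e37c] a)) = true := by
  decide +kernel

end Cfsg.Agent.J4M
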