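import Cfsg.Agent.J4M.N37a
import Cfsg.Agent.J4M.N37b
import Cfsg.Agent.J4M.N37c
import Cfsg.Agent.J4M.N37d

/-!
# The normaliser of a Sylow 37-subgroup of `J₄`
-/

set_option autoImplicit false

namespace Cfsg.Agent.J4M

open Cfsg.Agent.M24 Cfsg.Agent.TT Cfsg.Agent.GT Subgroup

theorem unf {x : ℕ} {k : ℕ → Bool} (h : force x k = true) : k x = true := force_eq x k ▸ h

theorem cos37 : lall lE37 (cosChk 29 3 43 1 [e37s0, e37s1, e37s2, e37s3] [e37u, e37c] v37) = true := lall_append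
  cos37_0 (lall_append cos37_1 (lall_append cos37_2 (lall_append cos37_3 (cos37_4))))
theorem con37 : lall lF (conChk 29 3 43 1 [e37i0, e37i1, e37i2, e37i3, e37i4, e37i5, e37i6, e37i7] [e37u, e37c] a37) =
  true := lall_append (unf con_0) (lall_append (unf con_1) (lall_append (unf con_2) (lall_append (unf con_3)
  (lall_append (unf con_4) (lall_append (unf con_5) (lall_append (unf con_6) (lall_append (unf con_7) (lall_append
  (unf con_8) (lall_append (unf con_9) (lall_append (unf con_10) (lall_append (unf con_11) (lall_append (unf con_12)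
  (unf con_13)))))))))))))

theorem m37 {G : Type*} [Group G] [Finite G] [IsSimpleGroup G] (e : G ≃* Spor.J4)
    (h : ∀ x : G, orderOf x = 3 → Nat.card N[zpowers x] ≤ 5322240) :
    ∃ u c : G, orderOf u = 37 ∧ orderOf c = 12 ∧ c ∈ N[zpowers u] ∧ ∀ M : Subgroup G, u ∈ M → c ∈ M →
      ∀ g ∈ M, g ∈ N[zpowers (c ^ 4)] → g ∉ zpowers c → 29 ∣ Nat.card M ∧ 43 ∣ Nat.card M := by
  obtain ⟨code, C, hv⟩ := exists_code e
  have v := valid_of_in (slp_in C hv slp37)
  have vA : Valid code [e37u, e37c] := fun s hs => v s (by revert hs; simp; tauto)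
  have vS : Valid code [e37s0, e37s1, e37s2, e37s3] := fun s hs => v s (by revert hs; simp; tauto)
  obtain ⟨u, c, ec, ou, oc, n, e1, mc, k⟩ := frob_data C vA (by norm_num) frob37.1 frob37.2.1 frob37.2.2
  have hN := nrm_sound C (x := c ^ 4) (by rw [← C.cpow_code, ec]) (force_eq _ _ ▸ nrm37)
  have h1 := h (c ^ 4) (by rw [orderOf_pow' _ (by norm_num), oc]; rfl)
  have vI : Valid code [e37i0, e37i1, e37i2, e37i3, e37i4, e37i5, e37i6, e37i7] := fun s hs => v s (by revert hs; simp; tauto)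
  have hI := nrm_sound C (x := c ^ 4) (by rw [← C.cpow_code, ec]) (force_eq _ _ ▸ nrmI)
  have ea : code (c ^ 6) = a37 := by rw [← C.cpow_code, ec]; rfl
  have o6 : orderOf (c ^ 6) = 2 := by rw [orderOf_pow' _ (by norm_num), oc]; rfl
  have hc : N[zpowers (c ^ 6)] ≤ C1[c ^ 6] := by
    obtain ⟨i, h5, h6, -⟩ := J4.exists_aut (by norm_num) o6
    exact (eq_of_le_of_card_ge ((cent_zpowers _).ge.trans (cent_le_norm _)) (by
      rw [h6, Nat.dvd_one.1 h5, mul_one])).ge
  obtain ⟨a1, a2⟩ := cos_cover C vS vA (le_inf hN ((nrm_sound C ea (force_eq _ _ ▸ invI.2.1)).trans hc))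
    (e1 ▸ le_inf (le_norm_pow c 4) ((le_norm_pow c 6).trans hc)) (e1 ▸ zpowers_le.2 mc) (by norm_num) (by norm_num)
    fix37.1 fix37.2.1 fix37.2.2.1 cos37
  obtain ⟨b1, b2⟩ := con_cover C vI vA hI ea (pow_mem mc 6) (by norm_num) (by norm_num) invI.1 invI.2.2.1 con37
  rw [fix37.2.2.2, e1, Nat.card_zpowers, oc] at a1 a2
  rw [invI.2.2.2] at b1 b2
  refine ⟨u, c, ou, oc, n, fun M hu hc g hg h2 h3 => ?_⟩
  by_cases h4 : g ∈ C1[c ^ 6]
  · exact a2 (by omega) g ⟨h2, h4⟩ h3 M (k M hu hc) hg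
  · exact b2 (by omega) g h2 h4 M (k M hu hc) hg

end Cfsg.Agent.J4M
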