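import Cfsg.Agent.J4T.C
import Cfsg.Agent.J4M.N11
import Cfsg.Agent.J4M.N29
import Cfsg.Agent.J4M.N37
import Cfsg.Agent.J4M.N43

/-!
# Groups of type `J₄`: the odd local maximal subgroups
-/

set_option autoImplicit false

namespace Cfsg.Agent.J4M

open Subgroup

theorem odd_max {G : Type*} [Group G] [Finite G] [IsSimpleGroup G] (hG : ¬ IsMulCommutative G) {z : G}
    (hJ : IsOfJankoFourTypeAt z) : (∀ U : Sylow 11 G, IsCoatom (normalizer ((U : Subgroup G) : Set G))) ∧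
    (∀ U : Sylow 29 G, IsCoatom (normalizer ((U : Subgroup G) : Set G))) ∧
    (∀ U : Sylow 37 G, IsCoatom (normalizer ((U : Subgroup G) : Set G))) ∧
    ∀ U : Sylow 43 G, IsCoatom (normalizer ((U : Subgroup G) : Set G)) := by
  obtain ⟨F, ⟨e⟩⟩ := J4T.jt_iso hG hJ
  exact J4T.odd_local F (m29 e) (m43 e) (m37 e) (m11 e)

end Cfsg.Agent.J4M
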