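import Cfsg.Agent.J4M.A
import Cfsg.Agent.J4M.R

/-!
# Coset covers by counting in the coded representation of `J₄`
-/

set_option autoImplicit false

namespace Cfsg.Agent.J4M

open Cfsg.Agent.M24 Cfsg.Agent.TT Cfsg.Agent.GT Subgroup

theorem count_cover {G : Type*} [Group G] [Finite G] {K N : Subgroup G} (hK : K ≤ N) (f : G → ℕ)
    (hf : ∀ k ∈ K, ∀ g, f (k * g) = f g) {l : List ℕ} (nd : l.Nodup) {P : G → Prop}
    (h : ∀ a ∈ l, ∃ ρ ∈ N, f ρ = a ∧ P ρ) : l.length * Nat.card K ≤ Nat.card N ∧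
      (Nat.card N ≤ l.length * Nat.card K → ∀ g ∈ N, ∃ k ∈ K, ∃ ρ, P ρ ∧ g = k * ρ) := by
  choose ρ h1 h2 h3 using h
  let φ : l.toFinset × K → N := fun x => ⟨x.2 * ρ x.1 (List.mem_toFinset.1 x.1.2), mul_mem (hK x.2.2) (h1 _ _)⟩
  have inj : Function.Injective φ := fun x y e => by
    have e1 : (x.2 : G) * ρ x.1 (List.mem_toFinset.1 x.1.2) = y.2 * ρ y.1 (List.mem_toFinset.1 y.1.2) :=
      congrArg Subtype.val e
    have e2 := congrArg f e1
    rw [hf _ x.2.2, hf _ y.2.2, h2, h2] at e2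
    obtain ⟨⟨a, ha⟩, x⟩ := x
    obtain ⟨⟨b, hb⟩, y⟩ := y
    obtain rfl : a = b := e2
    exact Prod.ext rfl (Subtype.ext (mul_right_cancel e1))
  have c : Nat.card (l.toFinset × K) = l.length * Nat.card K := by
    rw [Nat.card_prod, Nat.card_eq_fintype_card, Fintype.card_coe, List.toFinset_card_of_nodup nd]
  refine ⟨c ▸ Nat.card_le_card_of_injective φ inj, fun k g hg => ?_⟩
  obtain ⟨x, e⟩ := (inj.bijective_of_nat_card_le (c ▸ k)).2 ⟨g, hg⟩
  exact ⟨x.2, x.2.2, _, h3 _ _, (congrArg Subtype.val e).symm⟩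

/-- No repetition. -/
noncomputable def ndp (l : List ℕ) : Bool :=
  List.rec (motive := fun _ => Bool) true (fun x l ih => band (lall l fun y => !Nat.beq x y) ih) l

theorem ndp_sound {l : List ℕ} (h : ndp l = true) : l.Nodup := by
  induction l with
  | nil => exact List.nodup_nil
  | cons x l ih =>
    have e : ndp (x :: l) = band (lall l fun y => !Nat.beq x y) (ndp l) := rfl
    rw [e, band_eq, Bool.and_eq_true, lall_iff] at h
    exact List.nodup_cons.2 ⟨fun k => by simpa using h.1 x k, ih h.2⟩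

theorem lall_append {l m : List ℕ} {f : ℕ → Bool} (h1 : lall l f = true) (h2 : lall m f = true) :
    lall (l ++ m) f = true :=
  (lall_iff _ _).2 fun x hx => (List.mem_append.1 hx).elim ((lall_iff _ _).1 h1 x) ((lall_iff _ _).1 h2 x)

/-- Binary power. -/
noncomputable def bpw (g : ℕ) (n : ℕ) : ℕ :=
  Nat.rec (motive := fun _ => ℕ → ℕ) (fun _ => mone)
    (fun _ ih n => bif' (Nat.beq n (nat_lit 1)) g (force (force (Nat.shiftRight n (nat_lit 1)) ih) fun a =>
      force (mm a a) fun b => bif' (Nat.beq (Nat.mod n (nat_lit 2)) (nat_lit 0)) b (mm b g))) (nat_lit 6) n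

/-- The word `w` in `S` has order `p` (`b + p < 64`). -/
noncomputable def ordQ (S : List ℕ) (w p b : ℕ) : Bool :=
  force (pw mm mone S w) fun g => band (!Nat.beq g mone) (Nat.beq (bpw g (Nat.add b p)) (bpw g b))

/-- The words `c % 2 ^ 64` and `c / 2 ^ 64` in `S` have orders `p` and `q`. -/
noncomputable def bigQ (p b q d : ℕ) (S : List ℕ) (c : ℕ) : Bool :=
  band (force (Nat.land c (nat_lit 0xffffffffffffffff)) fun w => ordQ S w p b)
    (force (Nat.shiftRight c (nat_lit 64)) fun w => ordQ S w q d)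

/-- Check of one coset representative: image of `v`, word, certificate. -/
noncomputable def cosChk (p b q d : ℕ) (S A : List ℕ) (v e : ℕ) : Bool :=
  force (force (Nat.land (Nat.shiftRight e (nat_lit 112)) (nat_lit 0xffffffffffffffff)) (pw mm mone S)) fun r =>
    band (Nat.beq (mm v r) (Nat.land e (nat_lit 0xffffffffffffffffffffffffffff)))
      (bor (Nat.beq r mone) (force (Nat.shiftRight e (nat_lit 176)) (bigQ p b q d (r :: A))))

/-- Conjugate of `a` along a word in involutions. -/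
noncomputable def cjw (S : List ℕ) (a w : ℕ) : ℕ :=
  Nat.rec (motive := fun _ => ℕ → ℕ → ℕ) (fun a _ => a)
    (fun _ ih a w => bif' (Nat.beq w (nat_lit 0)) a
      (force (lget S mone (Nat.sub (Nat.land w (nat_lit 15)) (nat_lit 1))) fun s =>
        force (mm (mm s a) s) fun a' => force (Nat.shiftRight w (nat_lit 4)) (ih a'))) (nat_lit 16) a w

/-- Check of one conjugate: residue, word, certificate. -/
noncomputable def conChk (p b q d : ℕ) (S A : List ℕ) (a e : ℕ) : Bool :=
  force (force (Nat.land (Nat.shiftRight e (nat_lit 64)) (nat_lit 0xffffffffffffffff)) (cjw S a)) fun r =>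
    band (Nat.beq (Nat.mod r (nat_lit 0x1fffffffffffffff)) (Nat.land e (nat_lit 0xffffffffffffffff)))
      (bor (Nat.beq r a) (force (Nat.shiftRight e (nat_lit 128)) (bigQ p b q d (r :: A))))

/-- `a` has order `n + 1`. -/
noncomputable def ordN (a n : ℕ) : Bool :=
  band (Nat.beq (cpow mm mone a (n + 1)) mone) (nall n fun i => !Nat.beq (cpow mm mone a (i + 1)) mone)

theorem mm_assoc (a b c : ℕ) : mm (mm a b) c = mm a (mm b c) :=
  toM_inj (mm_spec _ _).1 (mm_spec _ _).1 (by simp only [toM_mm, Matrix.mul_assoc])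

section
variable {G : Type*} [Group G] {code : G → ℕ} {inv : ℕ → ℕ} (C : GC code mm inv mone)
include C

theorem bpw_code (g : G) {n : ℕ} (h0 : 0 < n) (h : n < 64) : bpw (code g) n = code (g ^ n) := by
  unfold bpw
  change n < 2 ^ (nat_lit 6) at h
  generalize (nat_lit 6 : ℕ) = m at h
  induction m generalizing n with
  | zero => omega
  | succ m ih =>
    simp only [bif'_eq, force_eq, Nat.beq_eq] at ih ⊢
    have e : Nat.shiftRight n (nat_lit 1) = n / 2 := Nat.shiftRight_one n
    have e' : Nat.mod n (nat_lit 2) = n % 2 := rfl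
    split_ifs with h1 h2
    · rw [h1]; exact congrArg code (pow_one g).symm
    · have h3 : n ≠ 1 := h1
      have h4 : n % 2 = 0 := h2
      rw [e, ih (by omega) (by omega), ← C.code_mul, ← pow_add, show n / 2 + n / 2 = n by omega]
    · have h3 : n ≠ 1 := h1
      have h4 : n % 2 ≠ 0 := h2
      rw [e, ih (by omega) (by omega), ← C.code_mul, ← C.code_mul, ← pow_add, ← pow_succ,
        show n / 2 + n / 2 + 1 = n by omega]

theorem ordQ_sound {S : List ℕ} (hS : Valid code S) {w p b : ℕ} (hp : p.Prime ∧ 0 < b ∧ b + p < 64)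
    (h : ordQ S w p b = true) {M : Subgroup G} (hM : gen code S ≤ M) : p ∣ Nat.card M := by
  obtain ⟨a, ha, e⟩ := in_pw C hS w
  have := Fact.mk hp.1
  simp only [ordQ, force_eq, band_eq, Bool.and_eq_true, ← e, Nat.add_eq, bpw_code C a hp.2.1 (by omega),
    bpw_code C a (show 0 < b + p by omega) hp.2.2, Bool.not_eq_true', Nat.beq_eq, C.inj.eq_iff, pow_add,
    mul_eq_left] at h
  rw [← orderOf_eq_prime h.2 fun k => by simp [C.eq_one_iff.2 k] at h]
  exact orderOf_dvd_card_of_mem (hM ha)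

/-- Every subgroup containing `A` and `ρ` has order divisible by `p` and `q`. -/
def Big (code : G → ℕ) (p q : ℕ) (A : List ℕ) (ρ : G) : Prop :=
  ∀ M : Subgroup G, gen code A ≤ M → ρ ∈ M → p ∣ Nat.card M ∧ q ∣ Nat.card M

theorem bigQ_sound {A : List ℕ} (hA : Valid code A) {p b q d c : ℕ} (hp : p.Prime ∧ 0 < b ∧ b + p < 64)
    (hq : q.Prime ∧ 0 < d ∧ d + q < 64) {ρ : G} (h : bigQ p b q d (code ρ :: A) c = true) : Big code p q A ρ := by
  intro M h1 h2
  simp only [bigQ, force_eq, band_eq, Bool.and_eq_true] at h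
  have v : Valid code (code ρ :: A) := fun s hs => (List.mem_cons.1 hs).elim (fun e => ⟨ρ, e.symm⟩) (hA s)
  have l : gen code (code ρ :: A) ≤ M := gen_le fun s hs => (List.mem_cons.1 hs).elim (fun e => C.inj e ▸ h2)
    fun hs => h1 (mem_gen_of_mem hs)
  exact ⟨ordQ_sound C v hp h.1 l, ordQ_sound C v hq h.2 l⟩

theorem ordN_sound {g : G} {a n : ℕ} (e : code g = a) (h : ordN a n = true) : orderOf g = n + 1 := by
  simp only [ordN, band_eq, Bool.and_eq_true, nall_iff, ← e, C.cpow_code, C.eq_one_iff,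
    Bool.not_eq_true', Bool.eq_false_iff, ne_eq] at h
  exact (orderOf_eq_iff (Nat.succ_pos n)).2 ⟨h.1, fun m hm m0 => by
    obtain ⟨i, rfl⟩ := Nat.exists_eq_succ_of_ne_zero m0.ne'
    exact h.2 i (by omega)⟩

theorem cjw_code {S : List ℕ} (hS : Valid code S) (h : (lall S fun s => Nat.beq (mm s s) mone) = true) (a : G)
    (w : ℕ) : ∃ ρ ∈ gen code S, cjw S (code a) w = code (ρ⁻¹ * a * ρ) := by
  unfold cjw
  generalize (nat_lit 16 : ℕ) = n
  induction n generalizing w a with
  | zero => exact ⟨1, one_mem _, by simp⟩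
  | succ n ih =>
    simp only [bif'_eq, force_eq] at ih ⊢
    split_ifs
    · exact ⟨1, one_mem _, by simp⟩
    obtain ⟨s, hs, e⟩ := C.lget_mem hS (Nat.sub (Nat.land w (nat_lit 15)) (nat_lit 1))
    have s2 : s⁻¹ = s := by
      rw [inv_eq_iff_mul_eq_one]
      rcases M24.lget_mem S mone (Nat.sub (Nat.land w (nat_lit 15)) (nat_lit 1)) with k | k
      · have := (lall_iff _ _).1 h _ k
        rwa [← e, ← C.code_mul, C.eq_one_iff] at this
      · rw [C.inj (e.trans (k.trans C.code_one.symm)), mul_one]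
    rw [← e, ← C.code_mul, ← C.code_mul]
    obtain ⟨ρ, h1, h2⟩ := ih (s * a * s) (Nat.shiftRight w (nat_lit 4))
    exact ⟨s * ρ, mul_mem hs h1, by rw [h2, mul_inv_rev, s2]; simp only [mul_assoc]⟩

variable [Finite G]

theorem fix_gen {B : List ℕ} {v : ℕ} (h0 : mm v mone = v) (h : (lall B fun s => Nat.beq (mm v s) v) = true) :
    ∀ k ∈ gen code B, mm v (code k) = v := by
  let K : Subgroup G :=
    { carrier := {k | mm v (code k) = v}
      mul_mem' := fun {a b} ha hb => by
        simp only [Set.mem_ofPred_eq] at *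
        rw [C.code_mul, ← mm_assoc, ha, hb]
      one_mem' := by simpa [C.code_one] using h0
      inv_mem' := fun {a} ha => by
        simp only [Set.mem_ofPred_eq] at *
        conv_lhs => rw [← ha, mm_assoc, ← C.code_mul, mul_inv_cancel, C.code_one, h0] }
  exact gen_le (H := K) fun g hg => Nat.eq_of_beq_eq_true ((lall_iff _ _).1 h _ hg)

theorem cos_cover {S A B E : List ℕ} (hS : Valid code S) (hA : Valid code A) {N : Subgroup G} (hN : gen code S ≤ N)
    (hB : gen code B ≤ N) (hBA : gen code B ≤ gen code A) {v p b q d : ℕ} (hp : p.Prime ∧ 0 < b ∧ b + p < 64)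
    (hq : q.Prime ∧ 0 < d ∧ d + q < 64) (h0 : mm v mone = v) (h1 : (lall B fun s => Nat.beq (mm v s) v) = true)
    (h2 : mapK (fun e => Nat.land e (nat_lit 0xffffffffffffffffffffffffffff)) E ndp = true)
    (h3 : lall E (cosChk p b q d S A v) = true) : E.length * Nat.card (gen code B) ≤ Nat.card N ∧
      (Nat.card N ≤ E.length * Nat.card (gen code B) → ∀ g ∈ N, g ∉ gen code B → Big code p q A g) := by
  rw [mapK_eq] at h2
  have := count_cover hB (fun g => mm v (code g)) (fun k hk g => by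
    rw [C.code_mul, ← mm_assoc, fix_gen C h0 h1 k hk]) (ndp_sound h2) (P := fun ρ => ρ = 1 ∨ Big code p q A ρ)
    fun a ha => by
      obtain ⟨e, he, rfl⟩ := List.mem_map.1 ha
      have := (lall_iff _ _).1 h3 e he
      obtain ⟨ρ, k1, k2⟩ := in_pw C hS (Nat.land (Nat.shiftRight e (nat_lit 112)) (nat_lit 0xffffffffffffffff))
      simp only [cosChk, force_eq, ← k2, band_eq, bor_eq, Bool.and_eq_true, Bool.or_eq_true, C.eq_one_iff] at this
      exact ⟨ρ, hN k1, Nat.eq_of_beq_eq_true this.1, this.2.imp_right (bigQ_sound C hA hp hq)⟩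
  rw [List.length_map] at this
  refine ⟨this.1, fun k g hg n M m1 m2 => ?_⟩
  obtain ⟨γ, a, ρ, rfl | c, rfl⟩ := this.2 k g hg
  · exact absurd (by rwa [mul_one]) n
  · exact c M m1 ((mul_mem_cancel_left (m1 (hBA a))).1 m2)

theorem con_cover {S A E : List ℕ} (hS : Valid code S) (hA : Valid code A) {N : Subgroup G} (hN : gen code S ≤ N)
    {a : G} {ca p b q d : ℕ} (ea : code a = ca) (ha : a ∈ gen code A) (hp : p.Prime ∧ 0 < b ∧ b + p < 64)
    (hq : q.Prime ∧ 0 < d ∧ d + q < 64) (h1 : (lall S fun s => Nat.beq (mm s s) mone) = true)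
    (h2 : mapK (fun e => Nat.land e (nat_lit 0xffffffffffffffff)) E ndp = true)
    (h3 : lall E (conChk p b q d S A ca) = true) : E.length * Nat.card ↥(N ⊓ C1[a]) ≤ Nat.card N ∧
      (Nat.card N ≤ E.length * Nat.card ↥(N ⊓ C1[a]) → ∀ g ∈ N, g ∉ C1[a] → Big code p q A g) := by
  rw [mapK_eq] at h2
  subst ea
  have hf : ∀ k ∈ N ⊓ C1[a], ∀ g, (k * g)⁻¹ * a * (k * g) = g⁻¹ * a * g := fun k hk g => by
    rw [mul_inv_rev, mul_assoc, ← mul_assoc a, ← mem_cent1.1 hk.2]; group
  have := count_cover (inf_le_left : N ⊓ C1[a] ≤ N) (fun g => Nat.mod (code (g⁻¹ * a * g)) (nat_lit 0x1fffffffffffffff))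
    (fun k hk g => by rw [hf k hk]) (ndp_sound h2)
    (P := fun ρ => ρ⁻¹ * a * ρ = a ∨ Big code p q A (ρ⁻¹ * a * ρ)) fun x hx => by
      obtain ⟨e, he, rfl⟩ := List.mem_map.1 hx
      have := (lall_iff _ _).1 h3 e he
      obtain ⟨ρ, k1, k2⟩ := cjw_code C hS h1 a (Nat.land (Nat.shiftRight e (nat_lit 64)) (nat_lit 0xffffffffffffffff))
      simp only [conChk, force_eq, k2, band_eq, bor_eq, Bool.and_eq_true, Bool.or_eq_true] at this
      exact ⟨ρ, hN k1, Nat.eq_of_beq_eq_true this.1,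
        this.2.imp (fun e => C.inj (Nat.eq_of_beq_eq_true e)) (bigQ_sound C hA hp hq)⟩
  rw [List.length_map] at this
  refine ⟨this.1, fun k g hg n M m1 m2 => ?_⟩
  obtain ⟨γ, c, ρ, h, e⟩ := this.2 k g hg
  rw [← hf γ c, ← e] at h
  rcases h with h | h
  · exact absurd (mem_cent1.2 (by rw [mul_assoc, inv_mul_eq_iff_eq_mul] at h; exact h.symm)) n
  · exact h M m1 (mul_mem (mul_mem (inv_mem m2) (m1 ha)) m2)

/-- The common part of the statements for `p = 29, 37, 43`. -/
theorem frob_data {cu cc p n k : ℕ} (hv : Valid code [cu, cc]) (hp : p.Prime) (h1 : ordP mm mone cu p = true)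
    (h2 : ordN cc n = true) (h3 : nrmChk mm mone cu [cc] [k] = true) :
    ∃ u c : G, code c = cc ∧ orderOf u = p ∧ orderOf c = n + 1 ∧ c ∈ N[zpowers u] ∧ gen code [cc] = zpowers c ∧
      c ∈ gen code [cu, cc] ∧ ∀ M : Subgroup G, u ∈ M → c ∈ M → gen code [cu, cc] ≤ M := by
  obtain ⟨u, rfl⟩ := hv cu (by simp)
  obtain ⟨c, rfl⟩ := hv cc (by simp)
  exact ⟨u, c, rfl, ordP_sound C hp rfl h1, ordN_sound C rfl h2, nrm_sound C rfl h3 (mem_gen_of_mem (by simp)),
    gen_singleton C.inj, mem_gen_of_mem (by simp), fun M hu hc => gen_le fun g hg => by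
      simp only [List.mem_cons, List.not_mem_nil, or_false, C.inj.eq_iff] at hg
      rcases hg with rfl | rfl <;> assumption⟩

end

theorem le_norm_pow {G : Type*} [Group G] (c : G) (k : ℕ) : zpowers c ≤ N[zpowers (c ^ k)] :=
  zpowers_le.2 (cent_le_norm _ ((cent_zpowers _).ge (mem_cent1.2 (Commute.self_pow c k).eq)))

end Cfsg.Agent.J4M
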