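import Cfsg.Agent.J4M.D

/-!
# Groups of type `J₄`: the maximal subgroup `M₂₂:2`
-/

set_option autoImplicit false

namespace Cfsg.Agent.J4M

open Cfsg.Agent.J4 Cfsg.Agent.J4U Cfsg.Agent.M24 Cfsg.Agent.TT Cfsg.Agent.GT Subgroup

theorem valid_sub {G : Type*} {code : G → ℕ} {l m : List ℕ} (h : Valid code l) (k : m ⊆ l) : Valid code m :=
  fun s hs => h s (k hs)

theorem m22 {G : Type*} [Group G] [Finite G] [IsSimpleGroup G] (F : JF G) (e : G ≃* Spor.J4) :
    ∃ M : Subgroup G, IsCoatom M ∧ Nonempty (↥M ≃* MulAut ↥Spor.M22) := by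
  obtain ⟨code, C, hv⟩ := exists_code e
  have v1 := valid_of_in (slp_in C hv k_slp)
  have vA : Valid code [dA, dB] := valid_sub v1 (by simp)
  have i2 := in_words C vA k_w
  have v2 : Valid code ([dA, dB, dSg, dTa, dZ, dV, dW] ++ [dX, dC, dS, dU, dF, dR]) := fun s hs =>
    (List.mem_append.1 hs).elim (v1 s) (valid_of_in i2 s)
  have v7 : Valid code [dX, dC, dS, dSg, dTa] := valid_sub v2 (by simp)
  have v11 : Valid code [dU, dF, dR, dZ, dV] := valid_sub v2 (by simp)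
  have w7 : Valid code [dX, dC, dS] := valid_sub v2 (by simp)
  have w11 : Valid code [dU, dF, dR] := valid_sub v2 (by simp)
  obtain ⟨a, ea⟩ := v2 dA (by simp)
  obtain ⟨b, eb⟩ := v2 dB (by simp)
  obtain ⟨x, ex⟩ := v2 dX (by simp)
  obtain ⟨u, eu⟩ := v2 dU (by simp)
  obtain ⟨w, ew⟩ := v2 dW (by simp)
  obtain ⟨c, ec⟩ := v2 dZ (by simp)
  have vD : Valid mcode [rp kX, rp kY, rp kU, rp kV] := gens_chD ▸ (chkM_sound chD_chk).1
  have iP := in_words gcM vD k_p1
  obtain ⟨p, ep⟩ := valid_of_in iP pA (by simp)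
  obtain ⟨q, eq⟩ := valid_of_in iP pB (by simp)
  have hD : gen mcode [pA, pB] = Dd := Dd_eq ▸ le_antisymm (gen_le_of_in gcM iP)
    (gen_le_of_in gcM (in_words gcM (valid_of_in iP) k_p2))
  obtain ⟨a1, a2, a3, a4, a5, a6, a7, a8⟩ := o_7
  obtain ⟨b1, b2, b3, b4, b5, b6, b7, b8, b9, b10, b11, b12⟩ := o_11
  have ox := ordP_sound C (by norm_num) ex a1
  have ou := ordP_sound C (by norm_num) eu b1
  have l7 : gen code [dX, dC, dS] ≤ gen code [dA, dB] := gen_le_of_in C fun k hk => i2 k (by revert hk; simp; tauto)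
  have l11 : gen code [dU, dF, dR] ≤ gen code [dA, dB] := gen_le_of_in C fun k hk => i2 k (by revert hk; simp; tauto)
  have mu : u ∈ gen code [dU, dF, dR] := mem_gen_of_mem (by simp [eu])
  obtain ⟨c1, c2⟩ := iso_of_chk C ea eb ep eq hD (by decide +kernel) k_H (ou ▸ orderOf_dvd_card_of_mem (l11 mu))
  have cp := @Nat.Coprime.mul_dvd_of_dvd_of_dvd
  obtain ⟨d1, d2, d3⟩ := loc_of_chk C vA v7 ex k_7 n_7 ((F.c7 x ox).2 ▸ Nat.le_of_dvd Nat.card_pos
    (cp (by norm_num) (cp (by norm_num) (ordW_sound C v7 (by norm_num) a5) (ordW_sound C v7 (by norm_num) a6))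
      (cp (by norm_num) (sqChk_sound C v7 (by norm_num) a7) (sqChk_sound C v7 (by norm_num) a8)))) g_7 b_7 l7
  rw [← ew, ← eu, ← ec] at b10
  rw [← eu, ← ec] at b11
  rw [← ew, ← ec] at b12
  simp only [← C.code_mul, C.inj.eq_iff] at b10 b11 b12
  obtain ⟨e1, e2, e3⟩ := loc_of_chk C vA v11 eu k_11 n_11 ((card_norm11 F ou (ordP_sound C (by norm_num) ew b8)
    (ordP_sound C (by norm_num) ec b9) b10 b11 b12).trans (Nat.le_of_dvd Nat.card_pos
    (cp (by norm_num) (ordW_sound C v11 (by norm_num) b5)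
      (cp (by norm_num) (sqChk_sound C v11 (by norm_num) b6) (sqChk_sound C v11 (by norm_num) b7))))) g_11 b_11 l11
  exact ⟨_, coatom_crit F c1 ox ou (mem_gen_of_mem (by simp [ex])) mu d1 e1
    (le_antisymm (d2.trans (by decide +kernel)) (Nat.le_of_dvd Nat.card_pos (cp (by norm_num)
      (ordW_sound C w7 (by norm_num) a2) (cp (by norm_num) (ordW_sound C w7 (by norm_num) a3)
        (ordW_sound C w7 (by norm_num) a4)))))
    (le_antisymm (e2.trans (by decide +kernel)) (Nat.le_of_dvd Nat.card_pos (cp (by norm_num)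
      (ordW_sound C w11 (by norm_num) b2) (cp (by norm_num) (ordW_sound C w11 (by norm_num) b3)
        (ordW_sound C w11 (by norm_num) b4))))) d3 e3, c2⟩

end Cfsg.Agent.J4M
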