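import Cfsg.Agent.J4M.N37D

/-!
# Certificates for the normaliser of a Sylow 37-subgroup of `J₄`
-/

set_option autoImplicit false

namespace Cfsg.Agent.J4M

open Cfsg.Agent.M24 Cfsg.Agent.TT Cfsg.Agent.GT Subgroup

theorem cos37_0 : lall lE37_0 (cosChk 29 3 43 1 [e37s0, e37s1, e37s2, e37s3] [e37u, e37c] v37) = true := by
  decide +kernel
theorem cos37_1 : lall lE37_1 (cosChk 29 3 43 1 [e37s0, e37s1, e37s2, e37s3] [e37u, e37c] v37) = true := by
  decide +kernel
theorem cos37_2 : lall lE37_2 (cosChk 29 3 43 1 [e37s0, e37s1, e37s2, e37s3] [e37u, e37c] v37) = true := by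
  decide +kernel
theorem cos37_3 : lall lE37_3 (cosChk 29 3 43 1 [e37s0, e37s1, e37s2, e37s3] [e37u, e37c] v37) = true := by
  decide +kernel
theorem cos37_4 : lall lE37_4 (cosChk 29 3 43 1 [e37s0, e37s1, e37s2, e37s3] [e37u, e37c] v37) = true := by
  decide +kernel

end Cfsg.Agent.J4M
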